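import Cfsg.Agent.S0269
import Cfsg.Agent.S0270
import Cfsg.Agent.LieClassical.HermPerfect
import Cfsg.Agent.LieClassical.OrthForms
import Cfsg.Agent.H312.Orth.Inst

/-!
# The classical groups are perfect and their proper normal subgroups are central (helper457, S5717)
-/

set_option autoImplicit false

namespace Cfsg.Agent.H457.BS

open Cfsg Cfsg.Agent.LieClassical
open scoped commutatorElement

/-- perfect, and all proper normal subgroups are central -/
structure Quasi (M : Type*) [Group M] : Prop where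
  perf : commutator M = ⊤
  norm : ∀ N : Subgroup M, N.Normal → N = ⊤ ∨ N ≤ Subgroup.center M

theorem Quasi.of_simple {M : Type*} [Group M] (hp : commutator M = ⊤) (hs : IsSimpleGroup (M ⧸ Subgroup.center M)) :
    Quasi M := by
  refine ⟨hp, fun N hN => ?_⟩
  have hN' : (N.map (QuotientGroup.mk' (Subgroup.center M))).Normal :=
    hN.map _ (QuotientGroup.mk'_surjective _)
  rcases hN'.eq_bot_or_eq_top with h | h
  · right
    intro x hx
    have h1 : QuotientGroup.mk' (Subgroup.center M) x ∈ N.map (QuotientGroup.mk' (Subgroup.center M)) :=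
      Subgroup.mem_map_of_mem _ hx
    rw [h, Subgroup.mem_bot] at h1
    exact (QuotientGroup.eq_one_iff x).1 h1
  · left
    -- every element is a product of an element of `N` and a central element
    have hex : ∀ x : M, ∃ n ∈ N, ∃ z ∈ Subgroup.center M, x = n * z := by
      intro x
      have h1 : QuotientGroup.mk' (Subgroup.center M) x ∈ N.map (QuotientGroup.mk' (Subgroup.center M)) := by
        rw [h]; exact Subgroup.mem_top _
      obtain ⟨n, hn, hnx⟩ := Subgroup.mem_map.1 h1
      refine ⟨n, hn, n⁻¹ * x, ?_, by group⟩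
      exact QuotientGroup.eq.1 hnx
    rw [eq_top_iff, ← hp, commutator_def, Subgroup.commutator_le]
    intro x _ y _
    obtain ⟨n, hn, z, hz, rfl⟩ := hex x
    obtain ⟨n', hn', z', hz', rfl⟩ := hex y
    rw [Subgroup.mem_center_iff] at hz hz'
    have h1 : ⁅n * z, n' * z'⁆ = ⁅n, n'⁆ := by
      rw [commutatorElement_def, commutatorElement_def]
      have e1 : n * z * (n' * z') = n * n' * (z * z') := by
        rw [mul_assoc, ← mul_assoc z, ← hz n', mul_assoc n' z, mul_assoc]
      have e2 : (n * z)⁻¹ * (n' * z')⁻¹ = (z' * z)⁻¹ * (n⁻¹ * n'⁻¹) := by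
        have e3 : (n' * z') * (n * z) = n' * n * (z' * z) := by
          rw [mul_assoc, ← mul_assoc z', ← hz' n, mul_assoc n z', mul_assoc]
        rw [← mul_inv_rev, e3, mul_inv_rev, mul_inv_rev n' n]
      have e4 : z * z' = z' * z := hz' z
      rw [mul_assoc (n * z * (n' * z')), e2, e1, e4]
      group
    rw [h1, commutatorElement_def]
    exact N.mul_mem (N.mul_mem (N.mul_mem hn hn') (N.inv_mem hn)) (N.inv_mem hn')

section rows

variable (F : Type*) [Field F] [Fintype F]

theorem quasi_sp (m : ℕ) (hm : 2 ≤ m) (h : m = 2 → 3 ≤ Fintype.card F) :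
    Quasi (Matrix.symplecticGroup (Fin m) F) := by
  refine Quasi.of_simple (Cfsg.Agent.S0269.result m ?_) (Cfsg.Agent.S0270.result m hm h)
  rcases Nat.eq_or_lt_of_le hm with h2 | h3
  · exact Or.inr (Or.inl ⟨h2.symm, h h2.symm⟩)
  · exact Or.inl h3

theorem quasi_su (n q : ℕ) (hF : Fintype.card F = q ^ 2) (hn : 3 ≤ n) (h : ¬ (n = 3 ∧ q = 2)) :
    Quasi (Cfsg.SU n F q) := by
  refine ⟨HermPerfect.commutator_SU_eq_top hF hn h, fun N hN => ?_⟩
  by_cases hc : N ≤ Subgroup.center (Cfsg.SU n F q)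
  · exact Or.inr hc
  · exact Or.inl (HermPerfect.normal_eq_top hF hn h hc)

theorem quasi_omega {ι : Type} [Fintype ι] [DecidableEq ι] {Q : QuadraticForm F (ι → F)} (hQ : OrthCore.Nondeg Q)
    (h5 : 5 ≤ Fintype.card ι) : Quasi (Cfsg.Omega F ⇑Q) := by
  have hG : OrthTrans.Good Q := OrthFinite.good_of_finite hQ (by rwa [Module.finrank_fintype_fun_eq_card])
  exact Quasi.of_simple (H312.Orth.omega_perfect hG) (OrthFinite.isSimpleGroup_POmega_of_good hG)

theorem quasi_oodd (m : ℕ) (hm : 2 ≤ m) (hodd : Odd (Fintype.card F)) :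
    Quasi (Cfsg.Omega F (Cfsg.quadFormOdd m F)) := by
  have h2 : (2 : F) ≠ 0 := by
    intro h2
    have hc2 : CharP F 2 := CharTwo.of_one_ne_zero_of_two_eq_zero one_ne_zero h2
    have hr : ringChar F = 2 := ringChar.eq_iff.2 hc2
    have := FiniteField.even_card_of_char_two hr
    rw [Nat.odd_iff] at hodd
    omega
  rw [← OrthForms.coe_oddForm]
  apply quasi_omega F (OrthForms.nondeg_oddForm m F h2)
  rw [Fintype.card_sum, Fintype.card_sum, Fintype.card_fin]
  simp
  omega

theorem quasi_oplus (m : ℕ) (hm : 3 ≤ m) : Quasi (Cfsg.Omega F (Cfsg.quadFormPlus m F)) := by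
  rw [← OrthForms.coe_plusForm]
  apply quasi_omega F (OrthForms.nondeg_plusForm m F)
  rw [Fintype.card_sum, Fintype.card_fin]
  omega

theorem quasi_ominus (m : ℕ) (a b : F) (hm : 2 ≤ m)
    (hab : ∀ z₁ z₂ : F, z₁ ^ 2 + a * z₁ * z₂ + b * z₂ ^ 2 = 0 → z₁ = 0 ∧ z₂ = 0) :
    Quasi (Cfsg.Omega F (Cfsg.quadFormMinus m F a b)) := by
  rw [← OrthForms.coe_minusForm]
  apply quasi_omega F (OrthForms.nondeg_minusForm m F a b hab)
  rw [Fintype.card_sum, Fintype.card_sum, Fintype.card_fin, Fintype.card_fin]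
  omega

end rows

end Cfsg.Agent.H457.BS
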