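import Cfsg.Agent.H514.DP.Core
import Cfsg.Agent.H457.BS.Quasi
import Cfsg.Agent.S0248
import Cfsg.Agent.S0249
import Cfsg.Agent.S2392

/-!
# The minimal degree of a quasisimple group containing `SL_w(q)` (helper457, S5717)
-/

set_option autoImplicit false

namespace Cfsg.Agent.H457.BS

open Module

theorem exists_ne_one {G : Type*} [Group G] {k : ℕ} (ρ : Representation ℂ G (Fin k → ℂ)) (hρ : ρ.IsIrreducible)
    (hk : 2 ≤ k) : ∃ g, ρ g ≠ 1 := by
  by_contra hcon
  push Not at hcon
  have h0 : (0 : ℕ) < k := by omega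
  let v : Fin k → ℂ := Pi.single ⟨0, h0⟩ 1
  have hv : v ≠ 0 := by
    intro h
    have := congrFun h ⟨0, h0⟩
    simp [v] at this
  let W : Subrepresentation ρ :=
    { toSubmodule := Submodule.span ℂ {v}
      apply_mem_toSubmodule := by
        intro g w hw
        rw [hcon g]
        exact hw }
  have hW : W = ⊥ ∨ W = ⊤ := eq_bot_or_eq_top W
  rcases hW with hW | hW
  · have h1 : v ∈ W.toSubmodule := Submodule.mem_span_singleton_self v
    rw [hW] at h1
    exact hv ((Submodule.mem_bot ℂ).mp h1)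
  · have h1 : W.toSubmodule = ⊤ := by rw [hW]; rfl
    have h2 : Module.finrank ℂ (Submodule.span ℂ {v}) = k := by
      change Module.finrank ℂ W.toSubmodule = k
      rw [h1, finrank_top, Module.finrank_fin_fun]
    rw [finrank_span_singleton hv] at h2
    omega

/-- degrees of the nontrivial representations of `SL_n(q)`, `n ≥ 3` -/
theorem deg_SL {F : Type} [Field F] [Fintype F] {n : ℕ} (hn : 3 ≤ n) {d : ℕ}
    (ρ : Representation ℂ (Matrix.SpecialLinearGroup (Fin n) F) (Fin d → ℂ)) (hρ : ∃ g, ρ g ≠ 1) :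
    Fintype.card F ^ (n - 1) - 1 ≤ d := by
  let f : Matrix.SpecialLinearGroup (Fin n) F →* GL (Fin d) ℂ :=
    (Matrix.GeneralLinearGroup.toLin (n := Fin d) (R := ℂ)).symm.toMonoidHom.comp ρ.asGroupHom
  have hker : ∀ x, f x = 1 → ρ x = 1 := by
    intro x h
    have h1 : ρ.asGroupHom x = 1 := by
      apply (Matrix.GeneralLinearGroup.toLin (n := Fin d) (R := ℂ)).symm.injective
      rw [map_one]; exact h
    rw [← Representation.asGroupHom_apply ρ x, h1, Units.val_one]
  rcases (Quasi.of_simple (Cfsg.Agent.S0248.result n hn) (Cfsg.Agent.S0249.result (F := F) n hn)).norm f.ker inferInstance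
    with h | h
  · exfalso
    obtain ⟨g, hg⟩ := hρ
    exact hg (hker g (by
      have : g ∈ f.ker := by rw [h]; exact Subgroup.mem_top g
      exact this))
  · refine Cfsg.Agent.S2392.result rfl n hn ?_ f h
    rw [ringChar.eq_zero (R := ℂ)]
    exact fun h0 => CharP.ringChar_ne_zero_of_finite F h0.symm

/-- a group all of whose proper normal subgroups are central and which contains a noncentral image of `SL_w(q)` has
minimal degree at least `q ^ (w - 1) - 1` -/
theorem minDeg_of_SL {M : Type} [Group M] [Finite M] {J : Type} [Fintype J] [DecidableEq J] {F : Type} [Field F]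
    [Fintype F] (hw : 3 ≤ Fintype.card J) (hnorm : ∀ N : Subgroup M, N.Normal → N = ⊤ ∨ N ≤ Subgroup.center M)
    (ψ : Matrix.SpecialLinearGroup J F →* M) (hψ : ∃ a, ψ a ∉ Subgroup.center M) :
    Cfsg.Agent.H514.DP.MinDeg M (Fintype.card F ^ (Fintype.card J - 1) - 1) := by
  classical
  intro k ρ hρ hk
  obtain ⟨n, hn⟩ : ∃ n, n = Fintype.card J := ⟨_, rfl⟩
  have e : Fin n ≃ J := (Fintype.equivFinOfCardEq hn.symm).symm
  let φ : Matrix.SpecialLinearGroup (Fin n) F →* Matrix.SpecialLinearGroup J F :=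
    { toFun := fun g => ⟨Matrix.reindex e e g.1, by rw [Matrix.det_reindex_self]; exact g.2⟩
      map_one' := by
        apply Subtype.ext
        show Matrix.reindex e e (1 : Matrix (Fin n) (Fin n) F) = 1
        simp
      map_mul' := fun g h => by
        apply Subtype.ext
        show Matrix.reindex e e (g.1 * h.1) = Matrix.reindex e e g.1 * Matrix.reindex e e h.1
        simp [Matrix.submatrix_mul_equiv] }
  have hφ : Function.Surjective φ := by
    intro g
    refine ⟨⟨Matrix.reindex e.symm e.symm g.1, by rw [Matrix.det_reindex_self]; exact g.2⟩, ?_⟩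
    apply Subtype.ext
    show Matrix.reindex e e (Matrix.reindex e.symm e.symm g.1) = g.1
    simp
  obtain ⟨a, ha⟩ := hψ
  obtain ⟨b, rfl⟩ := hφ a
  have h1 := deg_SL (F := F) (n := n) (by omega) (MonoidHom.comp ρ (ψ.comp φ)) ⟨b, ?_⟩
  · rwa [hn] at h1
  · intro h
    have h3 : ψ (φ b) ∈ MonoidHom.ker ρ := MonoidHom.mem_ker.2 h
    rcases hnorm (MonoidHom.ker ρ) inferInstance with h2 | h2
    · obtain ⟨g, hg⟩ := exists_ne_one ρ hρ hk
      exact hg (MonoidHom.mem_ker.1 (h2 ▸ Subgroup.mem_top g))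
    · exact ha (h2 h3)

end Cfsg.Agent.H457.BS
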